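import Cfsg.Agent.H1.Ic0

set_option autoImplicit false
set_option linter.unusedVariables false
set_option linter.unusedSectionVars false

namespace Cfsg.Agent.H1.Ic

open Subgroup Cfsg.Agent.FT Cfsg.Agent.GW
open scoped commutatorElement

variable {G : Type*} [Group G] [Finite G] {J J' K D M Q T : Subgroup G} {a b x y : G}

theorem p6_sq (h : Ic J a) (hx : x ∈ J) (e : x * x = 1) : x = 1 ∨ x = a :=
  or_iff_not_imp_left.2 fun h1 => h.uniq x hx (invo_of e h1)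

theorem p6_cen (h : Ic J a) (hx : x ∈ J) : x * a = a * x := mem_cen1.1 (h.pc.le hx)

theorem p6_mcq (h : Ic J a) (hQ : Syl 2 Q J) :
    ∃ α β m, H3.MCQ Q α β m ∧ α ^ 2 ^ (m - 1) = a := by
  have hr : prank 2 Q ≤ 1 := by
    by_contra c
    obtain ⟨A, hA⟩ := exists_pnElem_of_lt_prank (not_le.1 c)
    refine hA.not_cyc ((cyc_zpowers a).mono fun x hx => ?_)
    by_cases h1 : x = 1
    · exact h1 ▸ one_mem _
    · rw [h.uniq x (hQ.le (hA.le hx)) (hA.abelem.orderOf Nat.prime_two hx h1)]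
      exact mem_zpowers a
  obtain ⟨α, β, m, hq⟩ := (H3.cyc_or_mcq_of_rank hQ.pi hr).resolve_left (h.pc.pqs.not_cyc_two hQ)
  exact ⟨α, β, m, hq, h.uniq _ (hQ.le (hq.le hq.z_mem)) hq.ord_z⟩

theorem p6_inv {α β : G} {m : ℕ} (h : H3.MCQ Q α β m) (hx : x ∈ ⟪α⟫) : β * x * β⁻¹ = x⁻¹ := by
  obtain ⟨k, rfl⟩ := mem_zpowers_iff.1 hx
  rw [← conj_zpow, h.inv, inv_zpow]

theorem p6_i (h : Ic J a) (e : y * y = a) : y⁻¹ = a * y :=
  inv_eq_of_mul_eq_one_left (by rw [mul_assoc, e, h.inv.sq])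

theorem p6_z (h : Ic J a) (hQ : Syl 2 Q J) (hx : x ∈ Q) (hc : ∀ q ∈ Q, q * x = x * q) : x * x = 1 := by
  obtain ⟨α, β, m, hq, e⟩ := p6_mcq h hQ
  by_cases h1 : x ∈ ⟪α⟫
  · have := p6_inv hq h1
    rw [hc β hq.b_mem, mul_inv_cancel_right] at this
    exact mul_eq_one_iff_eq_inv.2 this
  · exfalso
    have h2 := (hq.out hx h1).inv
    rw [← hc α hq.a_mem, mul_inv_cancel_right] at h2
    have h3 : orderOf α ∣ 2 := orderOf_dvd_of_pow_eq_one (by rw [sq]; exact mul_eq_one_iff_eq_inv.2 h2)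
    rw [hq.ord] at h3
    have h4 := Nat.le_of_dvd two_pos h3
    have h5 : 2 ^ 2 ≤ 2 ^ m := Nat.pow_le_pow_right two_pos hq.two_le
    omega

theorem p6_b (h : Ic J a) (hQ : Syl 2 Q J) (hy : y ∈ Q) (e : y * y = a) :
    ∃ n ∈ Q, n * n = a ∧ n * y * n⁻¹ = a * y := by
  obtain ⟨α, β, m, hq, e1⟩ := p6_mcq h hQ
  by_cases h1 : y ∈ ⟪α⟫
  · exact ⟨β, hq.b_mem, by rw [← sq, hq.sq, e1], by rw [p6_inv hq h1, p6_i h e]⟩
  · have hw : α ^ 2 ^ (m - 2) ∈ ⟪α⟫ := npow_mem_zpowers _ _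
    have h2 := hq.two_le
    have ww : α ^ 2 ^ (m - 2) * α ^ 2 ^ (m - 2) = a := by
      rw [← sq, ← pow_mul, ← pow_succ, show m - 2 + 1 = m - 1 by omega, e1]
    refine ⟨_, hq.le hw, ww, ?_⟩
    have h3 := p6_inv (hq.out hy h1) (inv_mem hw)
    generalize α ^ 2 ^ (m - 2) = w at ww h3
    calc w * y * w⁻¹ = w * (y * w⁻¹ * y⁻¹) * y := by group
      _ = _ := by rw [h3, inv_inv, ww]

theorem p6_cj (h : Ic J a) (hx : x ∈ J) (hy : y ∈ J) (ex : x * x = a) (ey : y * y = a) :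
    ∃ g ∈ J, g * x * g⁻¹ = y := by
  obtain ⟨Q, hQ⟩ := exists_syl 2 J
  obtain ⟨α, β, m, hq, e1⟩ := p6_mcq h hQ
  have ha : a ∈ ⟪α⟫ := e1 ▸ hq.z_mem
  have key : ∀ u ∈ J, u * u = a → ∃ g ∈ J, g * u * g⁻¹ ∈ ⟪α⟫ := fun u hu eu => by
    by_contra! c
    have k1 : ∀ (j : ℕ), ∀ g ∈ J, g⁻¹ * (u * u) ^ j * g = a ^ j := fun j g hg => by
      have : Commute g (a ^ j) := (show Commute g a from p6_cen h hg).pow_right j
      rw [eu, mul_assoc, ← this.eq, inv_mul_cancel_left]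
    obtain ⟨N, -, h2, -⟩ := H4.thompson_transfer_general (G := J) (H := Q.subgroupOf J)
      (Q := ⟪α⟫.subgroupOf J) (Nat.not_even_iff_odd.1 fun e => hQ.not_dvd Nat.prime_two e.two_dvd)
      (by rw [relIndex_subgroupOf hQ.le, hq.relIndex]) (u := ⟨u, hu⟩) fun k g _ => by
        show (g : G)⁻¹ * u ^ k * g ∈ ⟪α⟫ ↔ Even k
        rcases Nat.even_or_odd' k with ⟨j, rfl | rfl⟩
        · rw [pow_mul, sq, k1 j g g.2]
          exact iff_of_true (pow_mem ha j) (even_two_mul j)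
        · refine iff_of_false (fun e => c g⁻¹ (inv_mem g.2) ?_) (by simp)
          have e2 : (g : G)⁻¹ * u ^ (2 * j + 1) * g = a ^ j * ((g : G)⁻¹ * u * g) := by
            rw [← k1 j g g.2, pow_succ, pow_mul, sq]; group
          rw [e2, mul_mem_cancel_left (pow_mem ha j)] at e
          rwa [inv_inv]
    exact no2_of_perfect h.pc.perf (N.map J.subtype) (map_subtype_le N)
      (by rw [relIndex, subgroupOf, comap_map_eq_self_of_injective J.subtype_injective, h2])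
  obtain ⟨g, hg, h1⟩ := key x hx ex
  obtain ⟨k, hk, h2⟩ := key y hy ey
  have f1 : g * x * g⁻¹ * (g * x * g⁻¹) = a := by rw [conj_mul, ex, p6_cen h hg, mul_inv_cancel_right]
  have f2 : k * y * k⁻¹ * (k * y * k⁻¹) = a := by rw [conj_mul, ey, p6_cen h hk, mul_inv_cancel_right]
  have f3 : ∃ c ∈ J, c * (g * x * g⁻¹) * c⁻¹ = k * y * k⁻¹ := by
    generalize g * x * g⁻¹ = w at h1 f1
    generalize k * y * k⁻¹ = w' at h2 f2
    have c : w' * w = w * w' := (cyc_zpowers α).ab.comm h2 h1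
    rcases p6_sq h (hQ.le (hq.le (mul_mem h2 h1))) (by
      rw [mul_assoc, ← mul_assoc w, ← c, mul_assoc, ← mul_assoc, f1, f2, h.inv.sq]) with f | f
    · exact ⟨β, hQ.le hq.b_mem, by rw [p6_inv hq h1, eq_inv_of_mul_eq_one_left f]⟩
    · exact ⟨1, one_mem _, by rw [← f1] at f; simpa using (mul_right_cancel f).symm⟩
  obtain ⟨c, hc, f4⟩ := f3
  refine ⟨k⁻¹ * c * g, mul_mem (mul_mem (inv_mem hk) hc) hg, ?_⟩
  calc _ = k⁻¹ * (c * (g * x * g⁻¹) * c⁻¹) * k := by group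
    _ = _ := by rw [f4]; group

theorem p6 (h0 : Ic J a) (h1 : Ic J' a) (hne : J ≠ J') (hT : Syl 2 T C[a]) (hb : Invo b) (hbT : b ∈ T)
    (hbJ : b ∈ J ⊔ J') (hc : ¬ ⁅J, ⟪b⟫⁆ ≤ O[{2}ᶜ](J)) (hc' : ¬ ⁅J', ⟪b⟫⁆ ≤ O[{2}ᶜ](J')) :
    (∃ n ∈ T ⊓ J, n * n = a ∧ n * b * n⁻¹ = a * b) ∧
      ∀ n ∈ T ⊓ J, ∀ n' ∈ T ⊓ J', n * n = a → n' * n' = a → ∃ g ∈ C[a], g * b * g⁻¹ = n * n' := by
  have q0 : Syl 2 (T ⊓ J) J := hT.inf_subn h0.pc.subn
  have n0 : J ≤ N(J') := h0.pc.norms_pcomp h1.pc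
  have cm := h0.pc.comm_of_ne h1.pc hne
  have cO : ∀ j ∈ J, ∀ j' ∈ J', j * j' * j⁻¹ * j'⁻¹ ∈ O[{2}ᶜ](J) ⊓ O[{2}ᶜ](J') := fun j hj j' hj' =>
    cm (commutator_mem_commutator hj hj')
  have cc : ∀ j ∈ T ⊓ J, ∀ j' ∈ T ⊓ J', j * j' = j' * j := fun j hj j' hj' => by
    have : j * j' * j⁻¹ * j'⁻¹ = 1 := (hT.pi.piElt (mul_mem (mul_mem (mul_mem hj.1 hj'.1) (inv_mem hj.1))
      (inv_mem hj'.1))).eq_one_of_mem (pcore_pi _ J) (cO j hj.2 j' hj'.2).1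
    rwa [mul_inv_eq_one, mul_inv_eq_iff_eq_mul] at this
  obtain ⟨c, hcQ, c', hcQ', rfl⟩ : ∃ c ∈ T ⊓ J, ∃ c' ∈ T ⊓ J', b = c * c' := by
    have n1 : J ⊔ J' ≤ N(J') := sup_le n0 (le_nrm _)
    have e := (q0.quo n0).max ((hT.pi.mono (inf_le_left (b := J ⊔ J'))).quo J')
      (quo_mono _ (inf_le_inf_left _ le_sup_left))
      ((quo_mono _ inf_le_right).trans (quo_sup_right n0).le)
    have e2 : b ∈ J' ⊔ (T ⊓ J) :=
      (quo_le_quo (inf_le_right.trans n1) (inf_le_right.trans n0)).1 e.le ⟨hbT, hbJ⟩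
    obtain ⟨c, hc, c', hc', e3⟩ := (mulEq_sup (inf_le_right.trans n0 : T ⊓ J ≤ N(J'))).symm.mul b e2
    refine ⟨c, hc, c', ⟨?_, hc'⟩, e3⟩
    rw [e3] at hbT
    exact (mul_mem_cancel_left (show c ∈ T from hc.1)).1 hbT
  have e1 : c * c * (c' * c') = 1 := by
    rw [← hb.sq, mul_assoc, mul_assoc, ← mul_assoc c', ← cc c hcQ c' hcQ', mul_assoc]
  have e2 : c * c ∈ T ⊓ J' := eq_inv_of_mul_eq_one_left e1 ▸ inv_mem (mul_mem hcQ' hcQ')
  have e3 : c * c = a := by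
    refine (p6_sq h0 (mul_mem hcQ.2 hcQ.2) (p6_z h0 q0 (mul_mem hcQ hcQ) fun q hq => cc q hq _ e2)).resolve_left
      fun e => hc ((comm_le_iff hb.sq).2 fun x hx => ?_)
    have : x * c = c * x := by
      rcases p6_sq h0 hcQ.2 e with rfl | rfl
      · simp
      · exact p6_cen h0 hx
    have f : x * (c * c') * x⁻¹ * (c * c')⁻¹ = c * (x * c' * x⁻¹ * c'⁻¹) * c⁻¹ := by
      rw [← mul_assoc x, this]; group
    rw [f]
    exact (pcore_nml _ J).conj_mem hcQ.2 (cO x hx c' hcQ'.2).1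
  have e4 : c' * c' = a := by rw [e3] at e1; rw [eq_inv_of_mul_eq_one_right e1, h0.inv.inv]
  constructor
  · obtain ⟨n, hn, f1, f2⟩ := p6_b h0 q0 hcQ e3
    refine ⟨n, hn, f1, ?_⟩
    calc n * (c * c') * n⁻¹ = n * c * n⁻¹ * ((n * c') * n⁻¹) := by group
      _ = _ := by rw [f2, cc n hn c' hcQ']; group
  · intro n hn n' hn' f1 f2
    obtain ⟨g, hg, g1⟩ := p6_cj h0 hcQ.2 hn.2 e3 f1
    obtain ⟨k, hk, g2⟩ := p6_cj h1 (FT.conj_mem (n0 hg) hcQ'.2) hn'.2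
      (by rw [conj_mul, e4, p6_cen h0 hg, mul_inv_cancel_right]) f2
    have rr : n * n' * (n * n') = 1 := by
      rw [mul_assoc, ← mul_assoc n', ← cc n hn n' hn', mul_assoc, ← mul_assoc, f1, f2, h0.inv.sq]
    have s1 : k * g * (c * c') * (k * g)⁻¹ = (n * k * n⁻¹ * k⁻¹)⁻¹ * (n * n') := by
      rw [← g2]
      conv_lhs => rw [show k * g * (c * c') * (k * g)⁻¹ = k * (g * c * g⁻¹) * (g * c' * g⁻¹) * k⁻¹ by group, g1]
      group
    have ss : k * g * (c * c') * (k * g)⁻¹ * (k * g * (c * c') * (k * g)⁻¹) = 1 := (hb.conj _).sq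
    have hx : (n * k * n⁻¹ * k⁻¹)⁻¹ ∈ O[{2}ᶜ](J) := inv_mem (cO n hn.2 k hk).1
    rw [s1] at ss
    generalize (n * k * n⁻¹ * k⁻¹)⁻¹ = x at s1 ss hx
    generalize n * n' = r at s1 ss rr ⊢
    obtain ⟨y, hy, ey⟩ := exists_sqrt (odd_orderOf (odd_core J) hx)
    have ri : r⁻¹ = r := inv_eq_of_mul_eq_one_right rr
    have i1 : r * x * r⁻¹ = x⁻¹ := by rw [ri]; exact eq_inv_of_mul_eq_one_right (by rw [← ss]; group)
    have i2 : r * y * r⁻¹ = y⁻¹ := by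
      obtain ⟨i, rfl⟩ := mem_zpowers_iff.1 hy
      rw [← conj_zpow, i1, inv_zpow]
    refine ⟨y⁻¹ * (k * g), mul_mem (inv_mem (h0.pc.le (pcore_le _ J (zpowers_le.2 hx hy))))
      (mul_mem (h1.pc.le hk) (h0.pc.le hg)), ?_⟩
    calc _ = y⁻¹ * (k * g * (c * c') * (k * g)⁻¹) * y := by group
      _ = y * (r * y * r⁻¹) * r := by rw [s1, ← ey]; group
      _ = r := by rw [i2]; group

end Cfsg.Agent.H1.Ic
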