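import Mathlib
import Cfsg.Agent.GW.On5
import Cfsg.Agent.S0035
import Cfsg.Agent.S0042
import Cfsg.Agent.H6.Square
import Cfsg.Agent.H16.Derang

/-! Ito's theorem on doubly transitive symmetric designs. -/
set_option autoImplicit false
set_option linter.unusedSectionVars false
namespace Cfsg.Agent.GW.ON
open Set MulAction Cfsg.Agent.GW.PP Cfsg.Agent.FT

variable {G Ω Y : Type*} [Group G] [MulAction G Ω] [MulAction G Y] [Finite G] [Finite Ω] [Finite Y]

/-- A doubly transitive group on a nontrivial symmetric design. -/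
structure Sd (G : Type*) [Group G] [MulAction G Ω] [MulAction G Y] (I : Ω → Y → Prop) : Prop where
  inc : Inc G I
  fa : ∀ g : G, (∀ x : Ω, g • x = x) → g = 1
  tP : T2 G Ω
  tB : T2 G Y
  ex : ∃ B a c, I a B ∧ ¬ I c B
  mv : ∀ (B : Y) (z : Ω), ∃ g : G, g • B = B ∧ g • z ≠ z

/-- The pointwise stabilizer of a block. -/
def Ka (G : Type*) [Group G] [MulAction G Ω] [MulAction G Y] (I : Ω → Y → Prop) (B : Y) : Subgroup G where
  carrier := {g | Ax I g B}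
  one_mem' := Ax.one B
  mul_mem' := Ax.mul
  inv_mem' := Ax.inv

/-- The conclusion. -/
def Cc (G : Type*) [Group G] (N : ℕ) : Prop :=
  ∃ (L : Subgroup G) (F : Type) (_ : Field F) (_ : Fintype F) (n : ℕ), 3 ≤ n ∧ L.Normal ∧
    Subgroup.centralizer (L : Set G) = ⊥ ∧ Nonempty (L ≃* Matrix.ProjectiveSpecialLinearGroup (Fin n) F) ∧
    N * (Fintype.card F - 1) = Fintype.card F ^ n - 1

theorem ite_sum' {β : Type*} [Fintype β] (p : Prop) [Decidable p] (f : β → ℕ) :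
    (if p then ∑ y, f y else 0) = ∑ y, if p then f y else 0 := by split_ifs <;> simp

namespace Sd
variable {I : Ω → Y → Prop} (h : Sd G I) {x y z z' u v : Ω} {B C D E : Y} {t g : G}
include h

theorem blk (n : x ≠ y) : ∃ C, I x C ∧ I y C := by
  obtain ⟨B, a, -, ha, -⟩ := h.ex
  obtain ⟨g, g1, g2⟩ := h.mv B a
  obtain ⟨k, rfl, rfl⟩ := h.tP _ _ x y g2 n
  exact ⟨k • B, h.inc.smul k ((h.inc.left g1).2 ha), h.inc.smul k ha⟩

theorem sep (n : x ≠ y) : ∃ C, I x C ∧ ¬ I y C := by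
  obtain ⟨B, a, c, ha, hc⟩ := h.ex
  obtain ⟨k, rfl, rfl⟩ := h.tP a c x y (fun e => hc (e ▸ ha)) n
  exact ⟨k • B, h.inc.smul k ha, fun e => hc ((h.inc k _ _).1 e)⟩

theorem two_out (n : B ≠ C) : ∃ x x', x ≠ x' ∧ I x C ∧ I x' C ∧ ¬ I x B ∧ ¬ I x' B := by
  obtain ⟨B₀, -, c, -, hc⟩ := h.ex
  obtain ⟨g, g1, g2⟩ := h.mv B₀ c
  obtain ⟨C₀, c1, c2⟩ := h.blk g2
  obtain ⟨k, rfl, rfl⟩ := h.tB B₀ C₀ B C (fun e => hc (e ▸ c2)) n
  exact ⟨k • g • c, k • c, (MulAction.injective k).ne g2, h.inc.smul k c1, h.inc.smul k c2,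
    fun e => hc ((h.inc.left g1).1 ((h.inc k _ _).1 e)), fun e => hc ((h.inc k _ _).1 e)⟩

theorem cardI (p : Prop → Prop → Prop) (n1 : B ≠ C) (n2 : D ≠ E) :
    {x | p (I x B) (I x C)}.ncard = {x | p (I x D) (I x E)}.ncard := by
  obtain ⟨g, rfl, rfl⟩ := h.tB B C D E n1 n2
  exact ncard_congr (fun x _ => g • x) (fun x hx => by simpa only [mem_ofPred, h.inc g] using hx)
    (fun _ _ _ _ e => MulAction.injective g e) fun x hx => ⟨g⁻¹ • x, by
      simpa only [mem_ofPred, ← h.inc g (g⁻¹ • x), smul_inv_smul] using hx, smul_inv_smul g x⟩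

theorem cardP (n1 : x ≠ y) (n2 : u ≠ v) : {C | I x C ∧ I y C}.ncard = {C | I u C ∧ I v C}.ncard := by
  obtain ⟨g, rfl, rfl⟩ := h.tP x y u v n1 n2
  exact ncard_congr (fun x _ => g • x) (fun x hx => by simpa only [mem_ofPred, h.inc g] using hx)
    (fun _ _ _ _ e => MulAction.injective g e) fun C hx => ⟨g⁻¹ • C, by
      simpa only [mem_ofPred, ← h.inc g _ (g⁻¹ • C), smul_inv_smul] using hx, smul_inv_smul g C⟩

theorem subP (n1 : x ≠ y) (n2 : u ≠ v) (H : ∀ C, I x C → I y C → I u C ∧ I v C) (h1 : I u C) (h2 : I v C) :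
    I x C ∧ I y C :=
  (eq_of_subset_of_ncard_le (s := {C | I x C ∧ I y C}) (t := {C | I u C ∧ I v C}) (fun C c => H C c.1 c.2)
    (h.cardP n2 n1).le).ge ⟨h1, h2⟩

theorem axfix (a : Ax I g B) : g • B = B := by_contra fun n =>
  let ⟨x, _, _, h1, _, h2, _⟩ := h.two_out n
  h2 (a x h1 ▸ h.inc.smul g h1)

theorem f1 (a : Ax I t B) (n : t • C ≠ C) (h1 : I x C) (h2 : I x (t • C)) : I x B :=
  ((eq_of_subset_of_ncard_le (s := {x | I x C ∧ I x B}) (t := {x | I x C ∧ I x (t • C)})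
    (fun x c => ⟨c.1, a x c.2 ▸ h.inc.smul t c.1⟩)
    (h.cardI And (Ne.symm n) fun e : C = B => n (by rw [e, h.axfix a])).le).ge ⟨h1, h2⟩).2

theorem f2 (a : Ax I t B) (h0 : ¬ I x B) (h1 : I x C) (h2 : I (t • x) C) : t • C = C := by_contra fun n =>
  h0 ((h.inc.left (h.axfix a)).1 (h.f1 a n h2 (h.inc.smul t h1)))

theorem faB (e : ∀ C : Y, g • C = C) : g = 1 := h.fa g fun _ => by_contra fun n =>
  let ⟨C, h1, h2⟩ := h.sep (Ne.symm n)
  h2 ((h.inc.left (e C)).2 h1)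

theorem ns (a : Ax I t B) (n : t ≠ 1) : ∃ C, C ≠ B ∧ t • C = C := by
  obtain ⟨x, hx⟩ := not_forall.1 (mt (h.fa t) n)
  obtain ⟨C, h1, h2⟩ := h.blk hx
  exact ⟨C, fun e => hx (a x (e ▸ h2)), h.f2 a (fun e => hx (a x e)) h2 h1⟩

theorem fit_case {M : Subgroup G} (h1 : M ≤ Ka G I B) (h2 : stabilizer G B ≤ N(M)) (h3 : F(M) ≠ ⊥) :
    Cc G (Nat.card Y) := by
  have le : Z(F(M)) ≤ Ka G I B := inf_le_left.trans ((fitting_le M).trans h1)
  obtain ⟨t, t1, t2⟩ := (Subgroup.bot_or_exists_ne_one _).resolve_left ((fitting_nil M).center_ne_bot h3)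
  exact onan (fun _ => h.faB) h.tB B Z(F(M)) (fun g hg => h.axfix (le hg))
    (le_nrm_iff.1 (norms_center (norms_fitting h2))) (fun a ha b hb => hb.2 a ha.1)
    ⟨t, t1, t2, h.ns (le t1) t2⟩

theorem f3 (a : Ax I t B) (n : z ≠ z') (e : t • z = z) (e' : t • z' = z') (h1 : ¬ I z B) (h2 : ¬ I z' B) :
    t = 1 := h.fa t fun x => by_contra fun hx => by
  have k : ∀ x, t • x ≠ x → ∀ C, I z C → I z' C → I x C := fun x hx C c1 c2 => by
    have k1 : ∀ {z}, t • z = z → ¬ I z B → ∀ C, I x C → I z C → I x C ∧ I (t • x) C := fun e h1 C c1 c2 =>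
      ⟨c1, (h.inc.left (h.f2 a h1 c2 (e.symm ▸ c2))).2 c1⟩
    have n1 : ∀ {z}, t • z = z → x ≠ z := fun e H => hx (H ▸ e)
    exact (h.subP (n1 e) n (fun C c1 c2 => ⟨c2, (h.subP (n1 e') hx.symm (k1 e' h2) c1 (k1 e h1 C c1 c2).2).2⟩)
      c1 c2).1
  obtain ⟨C, c1, c2⟩ := h.sep (Ne.symm hx)
  have c3 : ∀ z, ¬ I z B → I z C → t • z ≠ z := fun z b1 b2 e =>
    c2 ((h.inc.left (h.f2 a b1 b2 (e.symm ▸ b2))).2 c1)
  obtain ⟨u, v, n', u1, v1, u2, v2⟩ := h.two_out (B := B) (C := C) fun H => hx (a x (H ▸ c1))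
  exact c3 z h1 (h.subP n n' (fun D d1 d2 => ⟨k u (c3 u u2 u1) D d1 d2, k v (c3 v v2 v1) D d1 d2⟩) u1 v1).1 e

theorem ti (a : Ax I t B) (b : Ax I t C) (n : B ≠ C) : t = 1 :=
  let ⟨x, y, n, h1, h2, h3, h4⟩ := h.two_out n
  h.f3 a n (b x h1) (b y h2) h3 h4

theorem s1 (a : Ax I t B) (sr : ∀ z, ¬ I z B → t • z ≠ z) (e : t • C = C) (n1 : C ≠ B) (n2 : D ≠ B)
    (H : ∀ x, I x B → (I x C ↔ I x D)) : t • D = D := by_contra fun n => by
  classical
  have := Fintype.ofFinite Ω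
  have := Fintype.ofFinite Y
  let φ : Ω → ℕ := fun x => {E | t • E = E ∧ I x E}.ncard
  have k1 : ∀ D : Y, ∑ x with I x D, φ x = ∑ E with t • E = E, {x | I x D ∧ I x E}.ncard := fun D => by
    simp only [φ, ncard_eq_toFinset_card', toFinset_ofPred, Finset.card_filter, Finset.sum_filter]
    simp only [ite_sum']
    rw [Finset.sum_comm]
    refine Finset.sum_congr rfl fun E _ => Finset.sum_congr rfl fun x _ => ?_
    by_cases I x D <;> by_cases t • E = E <;> simp [*]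
  obtain ⟨x₀, x₁, n₀, -⟩ := h.two_out n1
  have k2 : ∀ D : Y, ∑ x with I x D, φ x = ∑ x with I x D ∧ I x B, φ x +
      {x | I x D ∧ ¬ I x B}.ncard * {C | I x₀ C ∧ I x₁ C}.ncard := fun D => by
    rw [← Finset.sum_filter_add_sum_filter_not _ (I · B), Finset.filter_filter, Finset.filter_filter,
      ncard_eq_toFinset_card', toFinset_ofPred, ← smul_eq_mul, ← Finset.sum_const]
    congr 1
    refine Finset.sum_congr rfl fun x hx => ?_
    have hx := (Finset.mem_filter.1 hx).2.2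
    rw [← h.cardP (sr x hx).symm n₀]
    exact congrArg ncard (Set.ext fun E => ⟨fun c => ⟨c.2, (h.inc.left c.1).2 c.2⟩,
      fun c => ⟨h.f2 a hx c.1 c.2, c.1⟩⟩)
  have k3 : ∑ x with I x D, φ x = ∑ x with I x C, φ x := by
    rw [k2, k2, h.cardI (fun p q => p ∧ ¬ q) n2 n1]
    congr 2
    ext x
    simpa using fun hx => (H x hx).symm
  rw [k1, k1] at k3
  have k4 : ∀ E, t • E = E → D ≠ E := fun E e1 e2 => n (e2 ▸ e1)
  refine (Finset.sum_lt_sum (fun E hE => ?_) ⟨C, by simpa using e, ?_⟩).ne k3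
  · by_cases e1 : C = E
    · rw [h.cardI And (k4 E (by simpa using hE)) n1]
      exact ncard_le_ncard fun x hx => ⟨hx.1, e1 ▸ hx.1⟩
    · exact (h.cardI And (k4 E (by simpa using hE)) e1).le
  · obtain ⟨x, -, -, h1, -, h2, -⟩ := h.two_out (k4 C e)
    exact ncard_lt_ncard ⟨fun x hx => ⟨hx.2, hx.2⟩, fun H => h2 (H ⟨h1, h1⟩).1⟩

theorem kcj (e : g • B = B) (a : Ax I t B) : Ax I (g * t * g⁻¹) B := by simpa only [e] using a.cj h.inc g

theorem ito (a : Ax I t B) (n : t ≠ 1) : Cc G (Nat.card Y) := by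
  classical
  have nK : stabilizer G B ≤ N(Ka G I B) := le_nrm_iff.2 fun g hg t ht => h.kcj hg ht
  suffices ∃ S, S ⊴ Ka G I B ∧ Sol S ∧ S ≠ ⊥ by
    obtain ⟨S, s1, s2, s3⟩ := this
    exact h.fit_case le_rfl nK (ne_bot_of_le inf_le_right (s2.meet_fitting s1 s3))
  by_cases sr : ∀ s : G, Ax I s B → s ≠ 1 → ∀ z, ¬ I z B → s • z ≠ z
  swap
  · push Not at sr
    obtain ⟨s, s1, s2, z, z1, z2⟩ := sr
    have fr : IsFrobeniusComplement (stabilizer (Ka G I B) z) := ⟨fun e => s2 (congrArg Subtype.val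
      ((e.le (show (⟨s, s1⟩ : Ka G I B) ∈ _ from z2)) : _ = _)), fun e => ?_, fun g hg => eq_bot_iff.2 fun r hr =>
        Subtype.ext (h.f3 r.2 (Ne.symm hg) hr.1 ?_ z1 fun e => z1 ((h.inc.left (h.axfix g.2)).1 e))⟩
    · obtain ⟨N, n1, n2, n3⟩ := S0042.result _ fr
      obtain ⟨N', m1, -, m2⟩ := S0035.result _ fr
      obtain rfl : N = N' := SetLike.coe_injective (n1.trans m1.symm)
      refine ⟨N.map (Subgroup.subtype _), ⟨Subgroup.map_subtype_le _, le_nrm_iff.2 ?_⟩, (Nil.map _ n3).sol,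
        fun e => fr.2.1 ?_⟩
      · rintro g hg _ ⟨x, hx, rfl⟩
        exact ⟨_, n2.conj_mem x hx ⟨g, hg⟩, rfl⟩
      · rwa [(Subgroup.map_eq_bot_iff_of_injective _ (Subgroup.subtype_injective _)).1 e,
          Subgroup.isComplement'_bot_left] at m2
    · obtain ⟨g, g1, g2⟩ := h.mv B z
      have : (g⁻¹ * t * g⁻¹⁻¹) • z = z := (e.ge (Subgroup.mem_top ⟨_, h.kcj (inv_fix g1) a⟩) :)
      exact n (h.f3 a g2 (by rwa [inv_inv, mul_smul, mul_smul, inv_smul_eq_iff] at this)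
        (e.ge (Subgroup.mem_top ⟨t, a⟩) :) (fun e => z1 ((h.inc.left g1).1 e)) z1)
    · obtain ⟨w, hw, e⟩ := hr.2
      rw [← e]
      exact (cj_smul (g : G) w z).trans (congrArg _ hw)
  have S1 : ∀ {B' C D : Y} {s : G}, Ax I s B' → s • C = C → C ≠ B' → D ≠ B' →
      (∀ x, I x B' → (I x C ↔ I x D)) → s • D = D := fun {B' C D s} a' e n1 n2 H => by
    by_cases s0 : s = 1
    · rw [s0, one_smul]
    refine h.s1 a' (fun z hz e => ?_) e n1 n2 H
    obtain ⟨g, rfl⟩ : ∃ g : G, g • B' = B := by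
      by_cases e : B' = B
      · exact ⟨1, (one_smul _ _).trans e⟩
      · exact (h.tB B' B B B' e (Ne.symm e)).imp fun _ H => H.1
    exact sr _ (a'.cj h.inc g) (by simpa using s0) (g • z) (fun e => hz ((h.inc g _ _).1 e))
      ((cj_smul g s z).trans (congrArg _ e))
  obtain ⟨C, c1, c2⟩ := h.ns a n
  have S2 : ∀ {s k : G}, Ax I s B → s • C = C → Ax I k B → s • k • C = k • C := fun a e b =>
    S1 a e c1 (smul_ne _ (h.axfix b) c1) fun x hx => (h.inc.right (b x hx)).symm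
  obtain ⟨g, g1, g2⟩ := h.tB B C C B c1.symm c1
  have b1 : Ax I (g * t * g⁻¹) C := g1 ▸ a.cj h.inc g
  have b2 : (g * t * g⁻¹) • B = B := by rw [← g2, cj_smul, c2]
  have b3 : g * t * g⁻¹ ≠ 1 := by simpa using n
  generalize g * t * g⁻¹ = b at b1 b2 b3
  obtain ⟨v, v1, v2⟩ : ∃ v, Ax I v B ∧ v • C ≠ C := by
    by_contra! H
    refine n (h.faB fun D => ?_)
    by_cases e : D = B
    · exact e ▸ h.axfix a
    obtain ⟨k, k1, rfl⟩ := h.tB B C B D c1.symm (Ne.symm e)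
    have := H _ (h.kcj (inv_fix k1) a)
    rwa [inv_inv, mul_smul, mul_smul, inv_smul_eq_iff] at this
  have cm : ∀ {C : Y} {s b : G}, C ≠ B → Ax I s B → s • C = C → Ax I b C → b • B = B → s * b = b * s :=
    fun n a e b1 b2 => by
      have := h.ti (by simpa only [mul_assoc] using a.mul (h.kcj b2 a.inv)) ((h.kcj e b1).mul b1.inv) n.symm
      rwa [mul_inv_eq_one, mul_inv_eq_iff_eq_mul] at this
  have v3 : b • v⁻¹ • C = v⁻¹ • C := S1 b1 b2 c1.symm (fun e => v2 (inv_smul_eq_iff.1 e).symm)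
    fun x hx => ⟨fun e => v1.inv x e ▸ h.inc.smul _ hx, h.f1 v1.inv (fun e => v2 (inv_smul_eq_iff.1 e).symm) hx⟩
  have nP : Ka G I B ⊓ stabilizer G C ⊴ Ka G I B := ⟨inf_le_left, le_nrm_iff.2 fun k hk s hs =>
    ⟨h.kcj (h.axfix hk) hs.1, show _ • C = C by rw [mul_smul, mul_smul, S2 hs.1 hs.2 hk.inv, smul_inv_smul]⟩⟩
  refine ⟨_, nP.center, (ab_center _).sol, fun e => b3 (h.ti b1 ?_ v2.symm)⟩
  have : v * b * v⁻¹ * b⁻¹ = 1 := e.le ⟨⟨show Ax I _ B by simpa only [mul_assoc] using v1.mul (h.kcj b2 v1.inv),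
    show _ • C = C by rw [mul_smul, h.axfix b1.inv, mul_smul, mul_smul, v3, smul_inv_smul]⟩, fun s hs => by
      rw [← mul_assoc, cm (smul_ne _ (h.axfix v1) c1) hs.1 (S2 hs.1 hs.2 v1) (b1.cj h.inc v) (by
        rw [mul_smul, mul_smul, h.axfix v1.inv, b2, h.axfix v1]), mul_assoc,
        cm c1 hs.1 hs.2 b1.inv (inv_fix b2), ← mul_assoc]⟩
  exact mul_inv_eq_one.1 this ▸ b1.cj h.inc v

end Sd

open Cfsg.Agent.H6 in
theorem t2_quot (h2 : IsMultiplyPretransitive G Ω 2) (H : Subgroup G) (hidx : H.index = Nat.card Ω)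
    (hnt : ¬ IsPretransitive H Ω) : T2 G (G ⧸ H) := by
  classical
  have := Fintype.ofFinite G
  have : Nontrivial Ω := by
    by_contra h
    rw [not_nontrivial_iff_subsingleton] at h
    exact hnt ⟨fun a b => ⟨1, Subsingleton.elim _ _⟩⟩
  have htr : IsPretransitive G Ω := by
    rw [← is_one_pretransitive_iff]
    exact H16.mtrans_mono h2 (by omega) Finite.one_lt_card
  set π : G → ℂ := fun g => (Nat.card (fixedBy Ω g) : ℂ) with hπ
  set θ : G → ℂ := fun g => (Nat.card (fixedBy (G ⧸ H) g) : ℂ) with hθ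
  have hπc : IsCharacter G π := isCharacter_perm Ω
  have a1 : classInner π (fun _ => 1) = 1 := by
    rw [hπ, classInner_perm_one, (card_orbits_eq_one_iff Ω).2 htr]; simp
  have a1' : classInner (fun _ => 1) π = 1 := by rw [← conj_classInner, a1]; simp
  have a2 : classInner π π = 2 := by
    rw [hπ, classInner_perm_perm, H16.rank_eq_two h2]; simp
  have hχ : IsIrrCharacter G (π - fun _ => 1) := by
    apply isIrr_of_norm_one (isCharacter_sub_irr hπc isIrr_one (by rw [a1]; simp))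
    rw [classInner_sub_left, classInner_sub_right, classInner_sub_right, a1, a1', a2,
      classInner_one_one]
    norm_num
  have a3 : classInner (fun _ => 1) (π - fun _ => 1) = 0 := by
    rw [classInner_sub_right, a1', classInner_one_one, sub_self]
  have hθc : IsCharacter G θ := isCharacter_perm _
  have b1 : classInner θ (fun _ => 1) = 1 := by
    rw [hθ, classInner_perm_one, (card_orbits_eq_one_iff _).2 inferInstance]; simp
  have c1 := isCharacter_sub_irr hθc isIrr_one (by rw [b1]; simp)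
  have c2 := isCharacter_sub_irr c1 hχ (by
    rw [classInner_sub_left, a3, classInner_sub_right, b1, hθ, hπ, classInner_perm_perm, sub_zero, sub_ne_zero]
    intro e
    have := (card_orbits_eq_one_iff (G := G) ((G ⧸ H) × Ω)).1 (by exact_mod_cast e)
    refine hnt ⟨fun a b => ?_⟩
    obtain ⟨g, e⟩ := exists_smul_eq G (((1 : G) : G ⧸ H), a) (((1 : G) : G ⧸ H), b)
    exact ⟨⟨g, stabilizer_quotient H ▸ (show g ∈ stabilizer G ((1 : G) : G ⧸ H) from congrArg Prod.fst e)⟩,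
      congrArg Prod.snd e⟩)
  have c3 := isCharacter_eq_zero_of_degree c2 (by
    simp only [Pi.sub_apply, hθ, hπ]
    simp [← hidx, Subgroup.index])
  rw [sub_eq_zero, sub_left_inj] at c3
  rw [← c3, hθ, classInner_perm_perm] at a2
  intro C D C' D' n1 n2
  obtain ⟨q, -, hq⟩ := (Nat.card_eq_two_iff' (Quotient.mk (orbitRel G _) (C, C))).1 (by exact_mod_cast a2)
  have k : ∀ {D D' : G ⧸ H}, D ≠ D' → Quotient.mk (orbitRel G _) (D, D') = q := fun n => hq _ fun e => by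
    obtain ⟨g, hg⟩ := orbitRel_apply.1 (Quotient.exact e)
    exact n ((congrArg Prod.fst hg).symm.trans (congrArg Prod.snd hg))
  obtain ⟨g, hg⟩ := orbitRel_apply.1 (Quotient.exact ((k n2).trans (k n1).symm))
  exact ⟨g, congrArg Prod.fst hg, congrArg Prod.snd hg⟩

theorem exists_sd [FaithfulSMul G Ω] (h2 : IsMultiplyPretransitive G Ω 2) (H : Subgroup G)
    (hidx : H.index = Nat.card Ω) (hnt : ¬ IsPretransitive H Ω) (hfix : ∀ a : Ω, ∃ h : H, h • a ≠ a) (a : Ω) :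
    ∃ I : Ω → G ⧸ H → Prop, Sd G I ∧ ∀ x, I x ((1 : G) : G ⧸ H) ↔ x ∈ orbit H a := by
  let I : Ω → G ⧸ H → Prop := fun x y => ∃ g : G, g • ((1 : G) : G ⧸ H) = y ∧ g • a = x
  have k : ∀ x, I x ((1 : G) : G ⧸ H) ↔ x ∈ orbit H a := fun x =>
    ⟨fun ⟨g, g1, g2⟩ => ⟨⟨g, stabilizer_quotient H ▸ (show g ∈ stabilizer G ((1 : G) : G ⧸ H) from g1)⟩, g2⟩,
      fun ⟨g, e⟩ => ⟨g, (stabilizer_quotient H).ge g.2, e⟩⟩
  refine ⟨I, ⟨fun g x y => ⟨fun ⟨c, c1, c2⟩ => ⟨g⁻¹ * c, by rw [mul_smul, c1, inv_smul_smul],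
    by rw [mul_smul, c2, inv_smul_smul]⟩, fun ⟨c, c1, c2⟩ => ⟨g * c, by rw [mul_smul, c1], by rw [mul_smul, c2]⟩⟩,
    fun g e => FaithfulSMul.eq_of_smul_eq_smul (α := Ω) fun x => (e x).trans (one_smul _ x).symm, t2_of h2,
    t2_quot h2 H hidx hnt, ?_, fun B z => ?_⟩, k⟩
  · by_contra! e
    refine hnt ⟨fun x y => ?_⟩
    have e := fun c => (k c).1 (e _ a c ((k a).2 (mem_orbit_self a)))
    obtain ⟨g, rfl⟩ := e x
    obtain ⟨g', rfl⟩ := e y
    exact ⟨g' * g⁻¹, by simp [mul_smul]⟩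
  · obtain ⟨g, rfl⟩ := exists_smul_eq G ((1 : G) : G ⧸ H) B
    obtain ⟨c, hc⟩ := hfix (g⁻¹ • z)
    refine ⟨g * c * g⁻¹, (cj_smul _ _ _).trans (congrArg _ ((stabilizer_quotient H).ge c.2)), fun e => hc ?_⟩
    rwa [mul_smul, mul_smul, smul_eq_iff_eq_inv_smul] at e

theorem Cc.out {N : ℕ} (h : Cc G N) : ∃ (m : ℕ) (F : Type) (_ : Field F) (_ : Fintype F), 2 ≤ m ∧
    N = (Fintype.card F ^ (m + 1) - 1) / (Fintype.card F - 1) ∧ ∃ N : Subgroup G, N.Normal ∧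
      Nonempty (N ≃* Matrix.ProjectiveSpecialLinearGroup (Fin (m + 1)) F) ∧
      Subgroup.centralizer (N : Set G) = ⊥ := by
  obtain ⟨L, F, i1, i2, n, h3, h4, h5, h6, h7⟩ := h
  obtain ⟨m, rfl⟩ : ∃ m, n = m + 1 := ⟨n - 1, by omega⟩
  exact ⟨m, F, i1, i2, by omega, (Nat.div_eq_of_eq_mul_left (by have := Fintype.one_lt_card (α := F); omega)
    h7.symm).symm, L, h4, h6, h5⟩

end Cfsg.Agent.GW.ON
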