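import Mathlib
import Cfsg.Agent.GW.ZC
import Cfsg.Agent.H22.JC3

/-!
The structure of ZN-groups (Kurzweil–Stellmacher, chapter 12).
-/

set_option autoImplicit false
set_option linter.unusedSectionVars false
set_option linter.unusedVariables false

namespace Cfsg.Agent.GW

open Subgroup Cfsg.Agent.FT
open scoped commutatorElement Classical

universe u

variable {G : Type u} [Group G] [Finite G] {H M R S T W X : Subgroup G} {g s t w y z : G}

/-- a `2`-group with a self-centralising four-group -/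
theorem mc_of_four (hR : PGrp 2 R) (h8 : 8 ∣ #R) (hW : Abelem 2 W) (h4 : #W = 4) (hle : W ≤ R)
    (hc : R ⊓ C(W) ≤ W) : ∃ a b m, H3.MCD R a b m ∨ H3.MCS R a b m := by
  obtain ⟨n, hn⟩ := hR.card
  have h3 : 3 ≤ n := (Nat.pow_dvd_pow_iff_le_right one_lt_two).1 (hn ▸ h8)
  obtain ⟨m, rfl⟩ := Nat.exists_eq_add_of_le' (show 1 ≤ n by omega)
  obtain ⟨a, b, h⟩ := (H3.maxCl_of_cen_sq Nat.prime_two hn hle h4 hc).mc (by omega)
  obtain c | c | ⟨b, c⟩ := h.cases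
  · exact ⟨a, b, m, .inl c⟩
  · refine (hW.not_cyc_of_card h4.ge ((cyc_zpowers (a ^ 2 ^ (m - 1))).mono fun x hx => ?_)).elim
    by_cases e : x = 1
    · exact e ▸ one_mem _
    · exact c.eq_z_of_sq (hle hx) (hW.2 x hx) e ▸ mem_zpowers _
  · exact ⟨a, b, m, .inr c⟩

theorem zn_loc (z : P22.ZN G) (h2 : O[{2}]((⊤ : Subgroup G)) = ⊥) (he : 2 ∣ #(⊤ : Subgroup G))
    (eH : piGen {2}ᶜ ⊤ = H) (hR : Syl 2 R H) :
    (∃ M : Subgroup G, IsStronglyEmbedded M) ∨ ∃ a b m, H3.MCD R a b m ∨ H3.MCS R a b m := by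
  obtain ⟨S, hS⟩ := exists_syl 2 (⊤ : Subgroup G)
  by_cases hn : IsStronglyEmbedded N(H5b.Jn 2 S)
  · exact .inl ⟨_, hn⟩
  obtain ⟨T, K, L, K', L', c⟩ := z.exists_pair h2 hS
    (fun e => hS.not_dvd Nat.prime_two (by rwa [e, relIndex_bot_left])) hn
  have hW := (P22.Wk_le K).trans (eH ▸ c.K_le)
  obtain ⟨g, hg, h1⟩ := hR.syl_subJ ((P22.abelem_Wk K).pGrp Nat.prime_two) hW
  have h3 := hR.cj_mem hg
  obtain ⟨k, hk, h4⟩ := hR.syl_Jsub (c.pT.inf_right H) inf_le_left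
  have h5 := card_dvd h4
  rw [card_cj, ← eH, c.card_inf, ← card_cj g] at h5
  have h6 : cj g R ⊓ C(P22.Wk K) ≤ L := inf_le_right.trans (c.nrm_W ▸ cen_le_nrm _)
  have h7 := (c.dpQ.inf_left hW).sup
  rw [inf_comm H, ← eH, c.Y_inf, sup_bot_eq, eH] at h7
  obtain ⟨a, b, m, h⟩ := mc_of_four h3.pi h5 (P22.abelem_Wk K) c.jc.card h1 (h7.ge.trans' (le_inf
    (inf_le_left.trans h3.le) (c.h.jo.C_p h6 (centsS ((P22.Vl_le L).trans c.dpQ.sup.ge)
      (centsY inf_le_right (centsC (c.Y_eq.ge.trans (inf_le_right.trans (cen_anti h6))))))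
      (h3.pi.inf_left _))))
  rw [← cj_inv_cj g R]
  exact .inr ⟨_, _, m, h.imp (fun h => h.map (cj_inj g⁻¹)) fun h => h.map (cj_inj g⁻¹)⟩

theorem zn_main (h : ∀ Q : Subgroup G, PGrp 2 Q → Q ≠ ⊥ → Sol N(Q)) (hO : Od((⊤ : Subgroup G)) = ⊥)
    (h2 : O[{2}]((⊤ : Subgroup G)) = ⊥) (he : 2 ∣ #(⊤ : Subgroup G))
    (hZ : ∀ S : Subgroup G, Syl 2 S ⊤ → C(Ω[2](Z(S))) ≤ N(S)) (hS : Syl 2 S ⊤) (eH : piGen {2}ᶜ ⊤ = H) :
    (∃ M : Subgroup H, IsStronglyEmbedded M) ∨ (∃ a b m, H3.MCD (S ⊓ H) a b m ∨ H3.MCS (S ⊓ H) a b m) ∨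
      (#Ω[2](Z(S)) = 4 ∧ Ω[2](S ⊓ H) = Ω[2](Z(S))) := by
  obtain c | c | c := zc_main (fun t ht => (h _ ht.pGrp (mt zpowers_eq_bot.1 ht.ne)).mono
    (cen_zpowers t ▸ cen_le_nrm _)) hO h2 he hS (hZ S hS) eH
  · exact .inl c
  · exact .inr (.inr c)
  have hH : H ⊴ ⊤ := eH ▸ piGen_nml _ _
  have hHS : H ⊔ S = ⊤ := eH ▸ Hall.piGen_sup (by rwa [compl_compl])
  set X := H ⊔ Ω[2](Z(S))
  have nX : X ⊴ ⊤ := ⟨le_top, hHS.ge.trans (sup_le (norms_of_le le_sup_left)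
    (normsY (le_top.trans hH.nrm) (Ohm_center_nml 2 S).nrm))⟩
  have hX : H ≤ X := le_sup_left
  have e1 : piGen {2}ᶜ ⊤ = H.subgroupOf X := by
    rw [← subgroupOf_self, ← so_piGen _ le_rfl, piGen_eq_of_le (eH.le.trans hX) le_top, eH]
  have zn : P22.ZN X := P22.zn_of c (fun N ⟨Q, h3, h4, e⟩ => ?_) fun T => ?_
  rotate_left
  · have h5 := map_subtype_le Q
    rw [e, ← comap_map_eq_self_of_injective X.subtype_injective Q]
    exact so_nrm h5 ▸ inf_subgroupOf_right _ X ▸ ((h _ (pGrp_of_isPGroup Nat.prime_two (h3.map _))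
      (mt (map_eq_bot_iff_of_injective _ X.subtype_injective).1 h4)).mono inf_le_left).so inf_le_right
  · have h3 := map_subtype_le (T : Subgroup X)
    have h4 : Syl 2 ((T : Subgroup X).map X.subtype) X := (hall_so_top h3).1 (by
      rw [subgroupOf, comap_map_eq_self_of_injective X.subtype_injective]; exact syl_top Nat.prime_two T)
    obtain ⟨g, -, h5⟩ := hS.syl_subJ h4.pi le_top
    have h6 := hS.cj_mem (mem_top g)
    have h7 := h4.max (h6.pi.inf_left X) (le_inf h5 h3) inf_le_right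
    have h8 : Ω[2](Z(cj g S)) ≤ X := by
      rw [← cj_center, ← cj_Ohm]; exact cj_le_of_nrm (nX.nrm (mem_top g)) le_sup_right
    rw [← comap_map_eq_self_of_injective X.subtype_injective (T : Subgroup X), ← h7]
    show C(Ω[2](Z((cj g S ⊓ X).subgroupOf X))) ≤ N((cj g S ⊓ X).subgroupOf X)
    rw [← so_cen inf_le_right, ← so_inf, ← so_Ohm _ (inf_le_left.trans inf_le_right), ← so_nrm inf_le_right,
      ← so_cen ((Ohm_le _ _).trans (inf_le_left.trans inf_le_right))]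
    exact comap_mono (normsI ((cen_anti ((abelem_Ohm_center 2 _).le_Ohm (le_inf
      (le_inf ((Ohm_le _ _).trans inf_le_left) h8) (Ohm_center_le_cen 2 inf_le_left)))).trans (hZ _ h6))
      (le_top.trans nX.nrm))
  have hR := hS.inf_nml hH
  have h3 := hR.le.trans hX
  obtain ⟨K, c⟩ | ⟨a, b, m, c⟩ := zn_loc zn (by
      rw [← subgroupOf_self, ← so_pcore _ le_rfl,
        eq_bot_of_le (pcore_max (pcore_pi _ _) (nX.pcore _)) h2, bot_subgroupOf])
    (by rw [card_top]; exact c.1.two_dvd) e1 ((hall_so h3 hX).2 hR)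
  · obtain ⟨z, hz, iz⟩ := exists_invo (H := H) (by_contra fun k => by
      have h4 := odd_iff_p'.1 (Nat.odd_iff.2 (Nat.two_dvd_ne_zero.1 k))
      rw [eq_bot_of_le (pcore_max h4 hH) hO, bot_sup_eq] at hHS
      rw [← hHS, eq_bot_of_le (pcore_max hS.pi ⟨le_top, hHS.ge.trans (le_nrm S)⟩) h2, card_bot'] at he
      omega)
    have key : ∀ s : X, Invo s → (s : G) ∈ H := fun s hs => by
      obtain ⟨k, rfl⟩ := isConj_iff.1 (H20.se_isConj c (a := ⟨z, hX hz⟩) (invo_coe.2 iz) hs)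
      exact conj_mem (hH.nrm (mem_top _)) hz
    obtain ⟨s, h4, h5⟩ := H20.se_exists_involution c
    obtain ⟨u, h6, h7⟩ := H20.se_exists_involution_notMem c
    refine .inl ⟨K.comap (inclusion hX), H20.isStronglyEmbedded_iff.2 ⟨fun e =>
      h7 (e.ge (mem_top ⟨u, key u h6⟩)), even_iff_two_dvd.2 (Invo.two_dvd (u := ⟨s, key s h5⟩)
        (invo_coe.2 (invo_coe (X := X).1 h5)) h4), fun t h8 h9 g h10 => ?_⟩⟩
    exact H20.se_mem c (t := inclusion hX t) h8 (invo_coe.2 (invo_coe (X := H).1 h9)) h10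
  · refine .inr (.inl ⟨a, b, m, c.imp (fun h => ?_) fun h => ?_⟩) <;>
      exact map_so h3 ▸ h.map X.subtype_injective

end Cfsg.Agent.GW
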